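import Cfsg.Agent.H57.Fi22Rep.DataGens

/-! The stored generators are small. -/

set_option autoImplicit false

namespace Cfsg.Agent.H57.Fi22Rep

theorem good_one : good one = true := by decide +kernel

theorem good_ga : good ga = true := by decide +kernel

theorem good_gb : good gb = true := by decide +kernel

theorem good_gc : good gc = true := by decide +kernel

theorem good_gd : good gd = true := by decide +kernel

theorem good_ge : good ge = true := by decide +kernel

theorem good_gf : good gf = true := by decide +kernel

theorem good_gg : good gg = true := by decide +kernel

theorem good_gh : good gh = true := by decide +kernel

theorem good_gi : good gi = true := by decide +kernel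

theorem one_rows : cmp (fun c => c) (fun c => c) one ((List.range 78).map fun i => Nat.pow 16777216 i) = true := by
  decide +kernel

end Cfsg.Agent.H57.Fi22Rep
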