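import Cfsg.Agent.H57.Fi22Rep.DataEdges

/-! Coxeter relations. -/

set_option autoImplicit false

namespace Cfsg.Agent.H57.Fi22Rep

theorem sq_a : prodIs ga ga one = true := by decide +kernel

theorem rel_ad : prodEq ga gd gd ga = true := by decide +kernel

theorem rel_ag : prodEq ga gg gg ga = true := by decide +kernel

theorem sq_b : prodIs gb gb one = true := by decide +kernel

theorem rel_be : prodEq gb ge ge gb = true := by decide +kernel

theorem rel_bh : prodEq gb gh gh gb = true := by decide +kernel

theorem good_pcd : good pcd = true := by decide +kernel

theorem good_pdc : good pdc = true := by decide +kernel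

theorem mul_cd : prodIs gc gd pcd = true := by decide +kernel

theorem mul_dc : prodIs gd gc pdc = true := by decide +kernel

theorem rel_cd : prodEq pcd gc pdc gd = true := by decide +kernel

theorem rel_cg : prodEq gc gg gg gc = true := by decide +kernel

theorem sq_d : prodIs gd gd one = true := by decide +kernel

theorem rel_dg : prodEq gd gg gg gd = true := by decide +kernel

theorem sq_e : prodIs ge ge one = true := by decide +kernel

theorem rel_eh : prodEq ge gh gh ge = true := by decide +kernel

theorem good_pfg : good pfg = true := by decide +kernel

theorem good_pgf : good pgf = true := by decide +kernel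

theorem mul_fg : prodIs gf gg pfg = true := by decide +kernel

theorem mul_gf : prodIs gg gf pgf = true := by decide +kernel

theorem rel_fg : prodEq pfg gf pgf gg = true := by decide +kernel

theorem sq_g : prodIs gg gg one = true := by decide +kernel

theorem sq_h : prodIs gh gh one = true := by decide +kernel

end Cfsg.Agent.H57.Fi22Rep
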