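import Cfsg.Agent.H57.Fi22Rep.DataEdges

/-! Coxeter relations. -/

set_option autoImplicit false

namespace Cfsg.Agent.H57.Fi22Rep

theorem good_pab : good pab = true := by decide +kernel

theorem good_pba : good pba = true := by decide +kernel

theorem mul_ab : prodIs ga gb pab = true := by decide +kernel

theorem mul_ba : prodIs gb ga pba = true := by decide +kernel

theorem rel_ab : prodEq pab ga pba gb = true := by decide +kernel

theorem rel_ae : prodEq ga ge ge ga = true := by decide +kernel

theorem rel_ah : prodEq ga gh gh ga = true := by decide +kernel

theorem good_pbc : good pbc = true := by decide +kernel

theorem good_pcb : good pcb = true := by decide +kernel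

theorem mul_bc : prodIs gb gc pbc = true := by decide +kernel

theorem mul_cb : prodIs gc gb pcb = true := by decide +kernel

theorem rel_bc : prodEq pbc gb pcb gc = true := by decide +kernel

theorem rel_bf : prodEq gb gf gf gb = true := by decide +kernel

theorem rel_bi : prodEq gb gi gi gb = true := by decide +kernel

theorem rel_ce : prodEq gc ge ge gc = true := by decide +kernel

theorem rel_ch : prodEq gc gh gh gc = true := by decide +kernel

theorem good_pde : good pde = true := by decide +kernel

theorem good_ped : good ped = true := by decide +kernel

theorem mul_de : prodIs gd ge pde = true := by decide +kernel

theorem mul_ed : prodIs ge gd ped = true := by decide +kernel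

theorem rel_de : prodEq pde gd ped ge = true := by decide +kernel

theorem good_pdh : good pdh = true := by decide +kernel

theorem good_phd : good phd = true := by decide +kernel

theorem mul_dh : prodIs gd gh pdh = true := by decide +kernel

theorem mul_hd : prodIs gh gd phd = true := by decide +kernel

theorem rel_dh : prodEq pdh gd phd gh = true := by decide +kernel

theorem good_pef : good pef = true := by decide +kernel

theorem good_pfe : good pfe = true := by decide +kernel

theorem mul_ef : prodIs ge gf pef = true := by decide +kernel

theorem mul_fe : prodIs gf ge pfe = true := by decide +kernel

theorem rel_ef : prodEq pef ge pfe gf = true := by decide +kernel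

theorem rel_ei : prodEq ge gi gi ge = true := by decide +kernel

theorem rel_fh : prodEq gf gh gh gf = true := by decide +kernel

theorem rel_gh : prodEq gg gh gh gg = true := by decide +kernel

theorem good_phi : good phi = true := by decide +kernel

theorem good_pih : good pih = true := by decide +kernel

theorem mul_hi : prodIs gh gi phi = true := by decide +kernel

theorem mul_ih : prodIs gi gh pih = true := by decide +kernel

theorem rel_hi : prodEq phi gh pih gi = true := by decide +kernel

end Cfsg.Agent.H57.Fi22Rep
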