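import Cfsg.Agent.H57.Fi22Rep.DataEdges

/-! Coxeter relations. -/

set_option autoImplicit false

namespace Cfsg.Agent.H57.Fi22Rep

theorem rel_ac : prodEq ga gc gc ga = true := by decide +kernel

theorem rel_af : prodEq ga gf gf ga = true := by decide +kernel

theorem rel_ai : prodEq ga gi gi ga = true := by decide +kernel

theorem rel_bd : prodEq gb gd gd gb = true := by decide +kernel

theorem rel_bg : prodEq gb gg gg gb = true := by decide +kernel

theorem sq_c : prodIs gc gc one = true := by decide +kernel

theorem rel_cf : prodEq gc gf gf gc = true := by decide +kernel

theorem rel_ci : prodEq gc gi gi gc = true := by decide +kernel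

theorem rel_df : prodEq gd gf gf gd = true := by decide +kernel

theorem rel_di : prodEq gd gi gi gd = true := by decide +kernel

theorem rel_eg : prodEq ge gg gg ge = true := by decide +kernel

theorem sq_f : prodIs gf gf one = true := by decide +kernel

theorem rel_fi : prodEq gf gi gi gf = true := by decide +kernel

theorem rel_gi : prodEq gg gi gi gg = true := by decide +kernel

theorem sq_i : prodIs gi gi one = true := by decide +kernel

end Cfsg.Agent.H57.Fi22Rep
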