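import Cfsg.Agent.H57.Fi22Rep.DataU

/-! A long relator. -/

set_option autoImplicit false

namespace Cfsg.Agent.H57.Fi22Rep

theorem good_u_0 : good u_0 = true := by decide +kernel

theorem eq_u_0 : prodIs ga gb u_0 = true := by decide +kernel

theorem good_u_1 : good u_1 = true := by decide +kernel

theorem eq_u_1 : prodIs u_0 gc u_1 = true := by decide +kernel

theorem good_u_2 : good u_2 = true := by decide +kernel

theorem eq_u_2 : prodIs u_1 gd u_2 = true := by decide +kernel

theorem good_u_3 : good u_3 = true := by decide +kernel

theorem eq_u_3 : prodIs u_2 ge u_3 = true := by decide +kernel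

theorem good_u_4 : good u_4 = true := by decide +kernel

theorem eq_u_4 : prodIs u_3 gf u_4 = true := by decide +kernel

theorem good_u_5 : good u_5 = true := by decide +kernel

theorem eq_u_5 : prodIs u_4 gh u_5 = true := by decide +kernel

theorem good_up2 : good up2 = true := by decide +kernel

theorem eq_up2 : prodIs u_5 u_5 up2 = true := by decide +kernel

theorem good_up4 : good up4 = true := by decide +kernel

theorem eq_up4 : prodIs up2 up2 up4 = true := by decide +kernel

theorem good_up8 : good up8 = true := by decide +kernel

theorem eq_up8 : prodIs up4 up4 up8 = true := by decide +kernel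

theorem u_top : prodIs up8 u_5 one = true := by decide +kernel

end Cfsg.Agent.H57.Fi22Rep
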