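import Cfsg.Agent.H57.Fi22Rep.DataV

/-! A long relator. -/

set_option autoImplicit false

namespace Cfsg.Agent.H57.Fi22Rep

theorem good_v_0 : good v_0 = true := by decide +kernel

theorem eq_v_0 : prodIs gb gc v_0 = true := by decide +kernel

theorem good_v_1 : good v_1 = true := by decide +kernel

theorem eq_v_1 : prodIs v_0 gd v_1 = true := by decide +kernel

theorem good_v_2 : good v_2 = true := by decide +kernel

theorem eq_v_2 : prodIs v_1 ge v_2 = true := by decide +kernel

theorem good_v_3 : good v_3 = true := by decide +kernel

theorem eq_v_3 : prodIs v_2 gf v_3 = true := by decide +kernel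

theorem good_v_4 : good v_4 = true := by decide +kernel

theorem eq_v_4 : prodIs v_3 gg v_4 = true := by decide +kernel

theorem good_v_5 : good v_5 = true := by decide +kernel

theorem eq_v_5 : prodIs v_4 gh v_5 = true := by decide +kernel

theorem good_vp2 : good vp2 = true := by decide +kernel

theorem eq_vp2 : prodIs v_5 v_5 vp2 = true := by decide +kernel

theorem good_vp4 : good vp4 = true := by decide +kernel

theorem eq_vp4 : prodIs vp2 vp2 vp4 = true := by decide +kernel

theorem good_vp8 : good vp8 = true := by decide +kernel

theorem eq_vp8 : prodIs vp4 vp4 vp8 = true := by decide +kernel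

theorem v_top : prodIs vp8 v_5 one = true := by decide +kernel

end Cfsg.Agent.H57.Fi22Rep
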