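import Cfsg.Agent.H57.Fi22Rep.DataW

/-! A long relator. -/

set_option autoImplicit false

namespace Cfsg.Agent.H57.Fi22Rep

theorem good_w_0 : good w_0 = true := by decide +kernel

theorem eq_w_0 : prodIs gd gc w_0 = true := by decide +kernel

theorem good_w_1 : good w_1 = true := by decide +kernel

theorem eq_w_1 : prodIs w_0 gb w_1 = true := by decide +kernel

theorem good_w_2 : good w_2 = true := by decide +kernel

theorem eq_w_2 : prodIs w_1 gd w_2 = true := by decide +kernel

theorem good_w_3 : good w_3 = true := by decide +kernel

theorem eq_w_3 : prodIs w_2 ge w_3 = true := by decide +kernel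

theorem good_w_4 : good w_4 = true := by decide +kernel

theorem eq_w_4 : prodIs w_3 gf w_4 = true := by decide +kernel

theorem good_w_5 : good w_5 = true := by decide +kernel

theorem eq_w_5 : prodIs w_4 gd w_5 = true := by decide +kernel

theorem good_w_6 : good w_6 = true := by decide +kernel

theorem eq_w_6 : prodIs w_5 gh w_6 = true := by decide +kernel

theorem good_w_7 : good w_7 = true := by decide +kernel

theorem eq_w_7 : prodIs w_6 gi w_7 = true := by decide +kernel

theorem good_wp2 : good wp2 = true := by decide +kernel

theorem eq_wp2 : prodIs w_7 w_7 wp2 = true := by decide +kernel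

theorem good_wp4 : good wp4 = true := by decide +kernel

theorem eq_wp4 : prodIs wp2 wp2 wp4 = true := by decide +kernel

theorem good_wp8 : good wp8 = true := by decide +kernel

theorem eq_wp8 : prodIs wp4 wp4 wp8 = true := by decide +kernel

theorem w_top : prodIs wp8 wp2 one = true := by decide +kernel

end Cfsg.Agent.H57.Fi22Rep
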