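import Cfsg.Prelude.Def_Spor_Fi22
import Cfsg.Agent.H57.Fi22Rep.CheckGens
import Cfsg.Agent.H57.Fi22Rep.CheckPairs0
import Cfsg.Agent.H57.Fi22Rep.CheckPairs1
import Cfsg.Agent.H57.Fi22Rep.CheckPairs2
import Cfsg.Agent.H57.Fi22Rep.CheckW
import Cfsg.Agent.H57.Fi22Rep.CheckU
import Cfsg.Agent.H57.Fi22Rep.CheckV

/-! The homomorphism `Fi22 →* GL (Fin 78) (ZMod 13)` given by the nine stored matrices. -/

set_option autoImplicit false

namespace Cfsg.Agent.H57.Fi22Rep

open Cfsg.Spor

theorem sl_pow (i j : ℕ) : sl (16777216 ^ i) j = if i = j then 1 else 0 := by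
  induction i generalizing j with
  | zero => cases j with
    | zero => rfl
    | succ j => simp [sl_succ, sl_of_zero]
  | succ i ih => cases j with
    | zero => simp [sl_zero, pow_succ]
    | succ j =>
      rw [sl_succ, pow_succ, Nat.mul_div_cancel _ (by norm_num : 0 < 16777216), ih]
      simp

theorem toM_one : toM one = 1 := by
  ext i j
  have h := cmp_spec (fun c => c) (fun c => c) rfl rfl _ _ one_rows i j j.2
  have e : ((List.range 78).map fun i => Nat.pow 16777216 i).getD i 0 = 16777216 ^ (i : ℕ) := by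
    rw [List.getD_eq_getElem _ _ (by simp)]
    simp
  simp only [e, sl_pow] at h
  simp only [toM, Matrix.of_apply, Matrix.one_apply, h]
  simp [Fin.val_inj]

theorem sqa : toM ga * toM ga = 1 :=
  (prodIs_spec good_ga good_ga sq_a).trans toM_one

/-- the generator as a unit -/
noncomputable def ua : GL (Fin 78) (ZMod 13) :=
  ⟨toM ga, toM ga, sqa, sqa⟩

theorem sqb : toM gb * toM gb = 1 :=
  (prodIs_spec good_gb good_gb sq_b).trans toM_one

/-- the generator as a unit -/
noncomputable def ub : GL (Fin 78) (ZMod 13) :=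
  ⟨toM gb, toM gb, sqb, sqb⟩

theorem sqc : toM gc * toM gc = 1 :=
  (prodIs_spec good_gc good_gc sq_c).trans toM_one

/-- the generator as a unit -/
noncomputable def uc : GL (Fin 78) (ZMod 13) :=
  ⟨toM gc, toM gc, sqc, sqc⟩

theorem sqd : toM gd * toM gd = 1 :=
  (prodIs_spec good_gd good_gd sq_d).trans toM_one

/-- the generator as a unit -/
noncomputable def ud : GL (Fin 78) (ZMod 13) :=
  ⟨toM gd, toM gd, sqd, sqd⟩

theorem sqe : toM ge * toM ge = 1 :=
  (prodIs_spec good_ge good_ge sq_e).trans toM_one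

/-- the generator as a unit -/
noncomputable def ue : GL (Fin 78) (ZMod 13) :=
  ⟨toM ge, toM ge, sqe, sqe⟩

theorem sqf : toM gf * toM gf = 1 :=
  (prodIs_spec good_gf good_gf sq_f).trans toM_one

/-- the generator as a unit -/
noncomputable def uf : GL (Fin 78) (ZMod 13) :=
  ⟨toM gf, toM gf, sqf, sqf⟩

theorem sqg : toM gg * toM gg = 1 :=
  (prodIs_spec good_gg good_gg sq_g).trans toM_one

/-- the generator as a unit -/
noncomputable def ug : GL (Fin 78) (ZMod 13) :=
  ⟨toM gg, toM gg, sqg, sqg⟩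

theorem sqh : toM gh * toM gh = 1 :=
  (prodIs_spec good_gh good_gh sq_h).trans toM_one

/-- the generator as a unit -/
noncomputable def uh : GL (Fin 78) (ZMod 13) :=
  ⟨toM gh, toM gh, sqh, sqh⟩

theorem sqi : toM gi * toM gi = 1 :=
  (prodIs_spec good_gi good_gi sq_i).trans toM_one

/-- the generator as a unit -/
noncomputable def ui : GL (Fin 78) (ZMod 13) :=
  ⟨toM gi, toM gi, sqi, sqi⟩

/-- images of the generators -/
noncomputable def val : Fi22.Gen → GL (Fin 78) (ZMod 13)
  | .a => ua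
  | .b => ub
  | .c => uc
  | .d => ud
  | .e => ue
  | .f => uf
  | .g => ug
  | .h => uh
  | .i => ui

theorem val_sq : ∀ x, val x * val x = 1
  | .a => Units.ext sqa
  | .b => Units.ext sqb
  | .c => Units.ext sqc
  | .d => Units.ext sqd
  | .e => Units.ext sqe
  | .f => Units.ext sqf
  | .g => Units.ext sqg
  | .h => Units.ext sqh
  | .i => Units.ext sqi

theorem braid_ab : ua * ub * ua = ub * ua * ub := Units.ext <| by
  show toM ga * toM gb * toM ga = toM gb * toM ga * toM gb
  rw [prodIs_spec good_ga good_gb mul_ab, prodIs_spec good_gb good_ga mul_ba]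
  exact prodEq_spec good_pab good_ga good_pba good_gb rel_ab

theorem comm_ac : ua * uc = uc * ua :=
  Units.ext (prodEq_spec good_ga good_gc good_gc good_ga rel_ac)

theorem comm_ad : ua * ud = ud * ua :=
  Units.ext (prodEq_spec good_ga good_gd good_gd good_ga rel_ad)

theorem comm_ae : ua * ue = ue * ua :=
  Units.ext (prodEq_spec good_ga good_ge good_ge good_ga rel_ae)

theorem comm_af : ua * uf = uf * ua :=
  Units.ext (prodEq_spec good_ga good_gf good_gf good_ga rel_af)

theorem comm_ag : ua * ug = ug * ua :=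
  Units.ext (prodEq_spec good_ga good_gg good_gg good_ga rel_ag)

theorem comm_ah : ua * uh = uh * ua :=
  Units.ext (prodEq_spec good_ga good_gh good_gh good_ga rel_ah)

theorem comm_ai : ua * ui = ui * ua :=
  Units.ext (prodEq_spec good_ga good_gi good_gi good_ga rel_ai)

theorem braid_bc : ub * uc * ub = uc * ub * uc := Units.ext <| by
  show toM gb * toM gc * toM gb = toM gc * toM gb * toM gc
  rw [prodIs_spec good_gb good_gc mul_bc, prodIs_spec good_gc good_gb mul_cb]
  exact prodEq_spec good_pbc good_gb good_pcb good_gc rel_bc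

theorem comm_bd : ub * ud = ud * ub :=
  Units.ext (prodEq_spec good_gb good_gd good_gd good_gb rel_bd)

theorem comm_be : ub * ue = ue * ub :=
  Units.ext (prodEq_spec good_gb good_ge good_ge good_gb rel_be)

theorem comm_bf : ub * uf = uf * ub :=
  Units.ext (prodEq_spec good_gb good_gf good_gf good_gb rel_bf)

theorem comm_bg : ub * ug = ug * ub :=
  Units.ext (prodEq_spec good_gb good_gg good_gg good_gb rel_bg)

theorem comm_bh : ub * uh = uh * ub :=
  Units.ext (prodEq_spec good_gb good_gh good_gh good_gb rel_bh)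

theorem comm_bi : ub * ui = ui * ub :=
  Units.ext (prodEq_spec good_gb good_gi good_gi good_gb rel_bi)

theorem braid_cd : uc * ud * uc = ud * uc * ud := Units.ext <| by
  show toM gc * toM gd * toM gc = toM gd * toM gc * toM gd
  rw [prodIs_spec good_gc good_gd mul_cd, prodIs_spec good_gd good_gc mul_dc]
  exact prodEq_spec good_pcd good_gc good_pdc good_gd rel_cd

theorem comm_ce : uc * ue = ue * uc :=
  Units.ext (prodEq_spec good_gc good_ge good_ge good_gc rel_ce)

theorem comm_cf : uc * uf = uf * uc :=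
  Units.ext (prodEq_spec good_gc good_gf good_gf good_gc rel_cf)

theorem comm_cg : uc * ug = ug * uc :=
  Units.ext (prodEq_spec good_gc good_gg good_gg good_gc rel_cg)

theorem comm_ch : uc * uh = uh * uc :=
  Units.ext (prodEq_spec good_gc good_gh good_gh good_gc rel_ch)

theorem comm_ci : uc * ui = ui * uc :=
  Units.ext (prodEq_spec good_gc good_gi good_gi good_gc rel_ci)

theorem braid_de : ud * ue * ud = ue * ud * ue := Units.ext <| by
  show toM gd * toM ge * toM gd = toM ge * toM gd * toM ge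
  rw [prodIs_spec good_gd good_ge mul_de, prodIs_spec good_ge good_gd mul_ed]
  exact prodEq_spec good_pde good_gd good_ped good_ge rel_de

theorem comm_df : ud * uf = uf * ud :=
  Units.ext (prodEq_spec good_gd good_gf good_gf good_gd rel_df)

theorem comm_dg : ud * ug = ug * ud :=
  Units.ext (prodEq_spec good_gd good_gg good_gg good_gd rel_dg)

theorem braid_dh : ud * uh * ud = uh * ud * uh := Units.ext <| by
  show toM gd * toM gh * toM gd = toM gh * toM gd * toM gh
  rw [prodIs_spec good_gd good_gh mul_dh, prodIs_spec good_gh good_gd mul_hd]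
  exact prodEq_spec good_pdh good_gd good_phd good_gh rel_dh

theorem comm_di : ud * ui = ui * ud :=
  Units.ext (prodEq_spec good_gd good_gi good_gi good_gd rel_di)

theorem braid_ef : ue * uf * ue = uf * ue * uf := Units.ext <| by
  show toM ge * toM gf * toM ge = toM gf * toM ge * toM gf
  rw [prodIs_spec good_ge good_gf mul_ef, prodIs_spec good_gf good_ge mul_fe]
  exact prodEq_spec good_pef good_ge good_pfe good_gf rel_ef

theorem comm_eg : ue * ug = ug * ue :=
  Units.ext (prodEq_spec good_ge good_gg good_gg good_ge rel_eg)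

theorem comm_eh : ue * uh = uh * ue :=
  Units.ext (prodEq_spec good_ge good_gh good_gh good_ge rel_eh)

theorem comm_ei : ue * ui = ui * ue :=
  Units.ext (prodEq_spec good_ge good_gi good_gi good_ge rel_ei)

theorem braid_fg : uf * ug * uf = ug * uf * ug := Units.ext <| by
  show toM gf * toM gg * toM gf = toM gg * toM gf * toM gg
  rw [prodIs_spec good_gf good_gg mul_fg, prodIs_spec good_gg good_gf mul_gf]
  exact prodEq_spec good_pfg good_gf good_pgf good_gg rel_fg

theorem comm_fh : uf * uh = uh * uf :=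
  Units.ext (prodEq_spec good_gf good_gh good_gh good_gf rel_fh)

theorem comm_fi : uf * ui = ui * uf :=
  Units.ext (prodEq_spec good_gf good_gi good_gi good_gf rel_fi)

theorem comm_gh : ug * uh = uh * ug :=
  Units.ext (prodEq_spec good_gg good_gh good_gh good_gg rel_gh)

theorem comm_gi : ug * ui = ui * ug :=
  Units.ext (prodEq_spec good_gg good_gi good_gi good_gg rel_gi)

theorem braid_hi : uh * ui * uh = ui * uh * ui := Units.ext <| by
  show toM gh * toM gi * toM gh = toM gi * toM gh * toM gi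
  rw [prodIs_spec good_gh good_gi mul_hi, prodIs_spec good_gi good_gh mul_ih]
  exact prodEq_spec good_phi good_gh good_pih good_gi rel_hi

theorem sq'_a : ua * ua = 1 := Units.ext sqa

theorem sq'_b : ub * ub = 1 := Units.ext sqb

theorem sq'_c : uc * uc = 1 := Units.ext sqc

theorem sq'_d : ud * ud = 1 := Units.ext sqd

theorem sq'_e : ue * ue = 1 := Units.ext sqe

theorem sq'_f : uf * uf = 1 := Units.ext sqf

theorem sq'_g : ug * ug = 1 := Units.ext sqg

theorem sq'_h : uh * uh = 1 := Units.ext sqh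

theorem sq'_i : ui * ui = 1 := Units.ext sqi

theorem sq_of_comm {x y : GL (Fin 78) (ZMod 13)} (hx : x * x = 1) (hy : y * y = 1)
    (h : x * y = y * x) : (x * y) ^ 2 = 1 := by
  rw [pow_two]; nth_rewrite 2 [h]; rw [mul_assoc, ← mul_assoc y, hy, one_mul, hx]

theorem cube_of_braid {x y : GL (Fin 78) (ZMod 13)} (hx : x * x = 1) (hy : y * y = 1)
    (h : x * y * x = y * x * y) : (x * y) ^ 3 = 1 := by
  have e : (x * y) ^ 3 = x * y * x * (y * x * y) := by simp only [pow_succ, pow_zero, one_mul, mul_assoc]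
  rw [e, ← h]
  calc x * y * x * (x * y * x) = x * y * (x * x) * (y * x) := by simp only [mul_assoc]
    _ = x * (y * y) * x := by rw [hx, mul_one]; simp only [mul_assoc]
    _ = 1 := by rw [hy, mul_one, hx]

theorem val_pair (x y : Fi22.Gen) : (val x * val y) ^ coxLabel Fi22.edges x y = 1 := by
  cases x <;> cases y
  · rw [show coxLabel Fi22.edges Fi22.Gen.a Fi22.Gen.a = 1 by decide +kernel]
    exact (pow_one _).trans (val_sq Fi22.Gen.a)
  · rw [show coxLabel Fi22.edges Fi22.Gen.a Fi22.Gen.b = 3 by decide +kernel]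
    exact cube_of_braid sq'_a sq'_b braid_ab
  · rw [show coxLabel Fi22.edges Fi22.Gen.a Fi22.Gen.c = 2 by decide +kernel]
    exact sq_of_comm sq'_a sq'_c comm_ac
  · rw [show coxLabel Fi22.edges Fi22.Gen.a Fi22.Gen.d = 2 by decide +kernel]
    exact sq_of_comm sq'_a sq'_d comm_ad
  · rw [show coxLabel Fi22.edges Fi22.Gen.a Fi22.Gen.e = 2 by decide +kernel]
    exact sq_of_comm sq'_a sq'_e comm_ae
  · rw [show coxLabel Fi22.edges Fi22.Gen.a Fi22.Gen.f = 2 by decide +kernel]
    exact sq_of_comm sq'_a sq'_f comm_af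
  · rw [show coxLabel Fi22.edges Fi22.Gen.a Fi22.Gen.g = 2 by decide +kernel]
    exact sq_of_comm sq'_a sq'_g comm_ag
  · rw [show coxLabel Fi22.edges Fi22.Gen.a Fi22.Gen.h = 2 by decide +kernel]
    exact sq_of_comm sq'_a sq'_h comm_ah
  · rw [show coxLabel Fi22.edges Fi22.Gen.a Fi22.Gen.i = 2 by decide +kernel]
    exact sq_of_comm sq'_a sq'_i comm_ai
  · rw [show coxLabel Fi22.edges Fi22.Gen.b Fi22.Gen.a = 3 by decide +kernel]
    exact cube_of_braid sq'_b sq'_a braid_ab.symm
  · rw [show coxLabel Fi22.edges Fi22.Gen.b Fi22.Gen.b = 1 by decide +kernel]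
    exact (pow_one _).trans (val_sq Fi22.Gen.b)
  · rw [show coxLabel Fi22.edges Fi22.Gen.b Fi22.Gen.c = 3 by decide +kernel]
    exact cube_of_braid sq'_b sq'_c braid_bc
  · rw [show coxLabel Fi22.edges Fi22.Gen.b Fi22.Gen.d = 2 by decide +kernel]
    exact sq_of_comm sq'_b sq'_d comm_bd
  · rw [show coxLabel Fi22.edges Fi22.Gen.b Fi22.Gen.e = 2 by decide +kernel]
    exact sq_of_comm sq'_b sq'_e comm_be
  · rw [show coxLabel Fi22.edges Fi22.Gen.b Fi22.Gen.f = 2 by decide +kernel]
    exact sq_of_comm sq'_b sq'_f comm_bf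
  · rw [show coxLabel Fi22.edges Fi22.Gen.b Fi22.Gen.g = 2 by decide +kernel]
    exact sq_of_comm sq'_b sq'_g comm_bg
  · rw [show coxLabel Fi22.edges Fi22.Gen.b Fi22.Gen.h = 2 by decide +kernel]
    exact sq_of_comm sq'_b sq'_h comm_bh
  · rw [show coxLabel Fi22.edges Fi22.Gen.b Fi22.Gen.i = 2 by decide +kernel]
    exact sq_of_comm sq'_b sq'_i comm_bi
  · rw [show coxLabel Fi22.edges Fi22.Gen.c Fi22.Gen.a = 2 by decide +kernel]
    exact sq_of_comm sq'_c sq'_a comm_ac.symm
  · rw [show coxLabel Fi22.edges Fi22.Gen.c Fi22.Gen.b = 3 by decide +kernel]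
    exact cube_of_braid sq'_c sq'_b braid_bc.symm
  · rw [show coxLabel Fi22.edges Fi22.Gen.c Fi22.Gen.c = 1 by decide +kernel]
    exact (pow_one _).trans (val_sq Fi22.Gen.c)
  · rw [show coxLabel Fi22.edges Fi22.Gen.c Fi22.Gen.d = 3 by decide +kernel]
    exact cube_of_braid sq'_c sq'_d braid_cd
  · rw [show coxLabel Fi22.edges Fi22.Gen.c Fi22.Gen.e = 2 by decide +kernel]
    exact sq_of_comm sq'_c sq'_e comm_ce
  · rw [show coxLabel Fi22.edges Fi22.Gen.c Fi22.Gen.f = 2 by decide +kernel]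
    exact sq_of_comm sq'_c sq'_f comm_cf
  · rw [show coxLabel Fi22.edges Fi22.Gen.c Fi22.Gen.g = 2 by decide +kernel]
    exact sq_of_comm sq'_c sq'_g comm_cg
  · rw [show coxLabel Fi22.edges Fi22.Gen.c Fi22.Gen.h = 2 by decide +kernel]
    exact sq_of_comm sq'_c sq'_h comm_ch
  · rw [show coxLabel Fi22.edges Fi22.Gen.c Fi22.Gen.i = 2 by decide +kernel]
    exact sq_of_comm sq'_c sq'_i comm_ci
  · rw [show coxLabel Fi22.edges Fi22.Gen.d Fi22.Gen.a = 2 by decide +kernel]
    exact sq_of_comm sq'_d sq'_a comm_ad.symm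
  · rw [show coxLabel Fi22.edges Fi22.Gen.d Fi22.Gen.b = 2 by decide +kernel]
    exact sq_of_comm sq'_d sq'_b comm_bd.symm
  · rw [show coxLabel Fi22.edges Fi22.Gen.d Fi22.Gen.c = 3 by decide +kernel]
    exact cube_of_braid sq'_d sq'_c braid_cd.symm
  · rw [show coxLabel Fi22.edges Fi22.Gen.d Fi22.Gen.d = 1 by decide +kernel]
    exact (pow_one _).trans (val_sq Fi22.Gen.d)
  · rw [show coxLabel Fi22.edges Fi22.Gen.d Fi22.Gen.e = 3 by decide +kernel]
    exact cube_of_braid sq'_d sq'_e braid_de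
  · rw [show coxLabel Fi22.edges Fi22.Gen.d Fi22.Gen.f = 2 by decide +kernel]
    exact sq_of_comm sq'_d sq'_f comm_df
  · rw [show coxLabel Fi22.edges Fi22.Gen.d Fi22.Gen.g = 2 by decide +kernel]
    exact sq_of_comm sq'_d sq'_g comm_dg
  · rw [show coxLabel Fi22.edges Fi22.Gen.d Fi22.Gen.h = 3 by decide +kernel]
    exact cube_of_braid sq'_d sq'_h braid_dh
  · rw [show coxLabel Fi22.edges Fi22.Gen.d Fi22.Gen.i = 2 by decide +kernel]
    exact sq_of_comm sq'_d sq'_i comm_di
  · rw [show coxLabel Fi22.edges Fi22.Gen.e Fi22.Gen.a = 2 by decide +kernel]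
    exact sq_of_comm sq'_e sq'_a comm_ae.symm
  · rw [show coxLabel Fi22.edges Fi22.Gen.e Fi22.Gen.b = 2 by decide +kernel]
    exact sq_of_comm sq'_e sq'_b comm_be.symm
  · rw [show coxLabel Fi22.edges Fi22.Gen.e Fi22.Gen.c = 2 by decide +kernel]
    exact sq_of_comm sq'_e sq'_c comm_ce.symm
  · rw [show coxLabel Fi22.edges Fi22.Gen.e Fi22.Gen.d = 3 by decide +kernel]
    exact cube_of_braid sq'_e sq'_d braid_de.symm
  · rw [show coxLabel Fi22.edges Fi22.Gen.e Fi22.Gen.e = 1 by decide +kernel]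
    exact (pow_one _).trans (val_sq Fi22.Gen.e)
  · rw [show coxLabel Fi22.edges Fi22.Gen.e Fi22.Gen.f = 3 by decide +kernel]
    exact cube_of_braid sq'_e sq'_f braid_ef
  · rw [show coxLabel Fi22.edges Fi22.Gen.e Fi22.Gen.g = 2 by decide +kernel]
    exact sq_of_comm sq'_e sq'_g comm_eg
  · rw [show coxLabel Fi22.edges Fi22.Gen.e Fi22.Gen.h = 2 by decide +kernel]
    exact sq_of_comm sq'_e sq'_h comm_eh
  · rw [show coxLabel Fi22.edges Fi22.Gen.e Fi22.Gen.i = 2 by decide +kernel]
    exact sq_of_comm sq'_e sq'_i comm_ei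
  · rw [show coxLabel Fi22.edges Fi22.Gen.f Fi22.Gen.a = 2 by decide +kernel]
    exact sq_of_comm sq'_f sq'_a comm_af.symm
  · rw [show coxLabel Fi22.edges Fi22.Gen.f Fi22.Gen.b = 2 by decide +kernel]
    exact sq_of_comm sq'_f sq'_b comm_bf.symm
  · rw [show coxLabel Fi22.edges Fi22.Gen.f Fi22.Gen.c = 2 by decide +kernel]
    exact sq_of_comm sq'_f sq'_c comm_cf.symm
  · rw [show coxLabel Fi22.edges Fi22.Gen.f Fi22.Gen.d = 2 by decide +kernel]
    exact sq_of_comm sq'_f sq'_d comm_df.symm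
  · rw [show coxLabel Fi22.edges Fi22.Gen.f Fi22.Gen.e = 3 by decide +kernel]
    exact cube_of_braid sq'_f sq'_e braid_ef.symm
  · rw [show coxLabel Fi22.edges Fi22.Gen.f Fi22.Gen.f = 1 by decide +kernel]
    exact (pow_one _).trans (val_sq Fi22.Gen.f)
  · rw [show coxLabel Fi22.edges Fi22.Gen.f Fi22.Gen.g = 3 by decide +kernel]
    exact cube_of_braid sq'_f sq'_g braid_fg
  · rw [show coxLabel Fi22.edges Fi22.Gen.f Fi22.Gen.h = 2 by decide +kernel]
    exact sq_of_comm sq'_f sq'_h comm_fh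
  · rw [show coxLabel Fi22.edges Fi22.Gen.f Fi22.Gen.i = 2 by decide +kernel]
    exact sq_of_comm sq'_f sq'_i comm_fi
  · rw [show coxLabel Fi22.edges Fi22.Gen.g Fi22.Gen.a = 2 by decide +kernel]
    exact sq_of_comm sq'_g sq'_a comm_ag.symm
  · rw [show coxLabel Fi22.edges Fi22.Gen.g Fi22.Gen.b = 2 by decide +kernel]
    exact sq_of_comm sq'_g sq'_b comm_bg.symm
  · rw [show coxLabel Fi22.edges Fi22.Gen.g Fi22.Gen.c = 2 by decide +kernel]
    exact sq_of_comm sq'_g sq'_c comm_cg.symm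
  · rw [show coxLabel Fi22.edges Fi22.Gen.g Fi22.Gen.d = 2 by decide +kernel]
    exact sq_of_comm sq'_g sq'_d comm_dg.symm
  · rw [show coxLabel Fi22.edges Fi22.Gen.g Fi22.Gen.e = 2 by decide +kernel]
    exact sq_of_comm sq'_g sq'_e comm_eg.symm
  · rw [show coxLabel Fi22.edges Fi22.Gen.g Fi22.Gen.f = 3 by decide +kernel]
    exact cube_of_braid sq'_g sq'_f braid_fg.symm
  · rw [show coxLabel Fi22.edges Fi22.Gen.g Fi22.Gen.g = 1 by decide +kernel]
    exact (pow_one _).trans (val_sq Fi22.Gen.g)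
  · rw [show coxLabel Fi22.edges Fi22.Gen.g Fi22.Gen.h = 2 by decide +kernel]
    exact sq_of_comm sq'_g sq'_h comm_gh
  · rw [show coxLabel Fi22.edges Fi22.Gen.g Fi22.Gen.i = 2 by decide +kernel]
    exact sq_of_comm sq'_g sq'_i comm_gi
  · rw [show coxLabel Fi22.edges Fi22.Gen.h Fi22.Gen.a = 2 by decide +kernel]
    exact sq_of_comm sq'_h sq'_a comm_ah.symm
  · rw [show coxLabel Fi22.edges Fi22.Gen.h Fi22.Gen.b = 2 by decide +kernel]
    exact sq_of_comm sq'_h sq'_b comm_bh.symm
  · rw [show coxLabel Fi22.edges Fi22.Gen.h Fi22.Gen.c = 2 by decide +kernel]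
    exact sq_of_comm sq'_h sq'_c comm_ch.symm
  · rw [show coxLabel Fi22.edges Fi22.Gen.h Fi22.Gen.d = 3 by decide +kernel]
    exact cube_of_braid sq'_h sq'_d braid_dh.symm
  · rw [show coxLabel Fi22.edges Fi22.Gen.h Fi22.Gen.e = 2 by decide +kernel]
    exact sq_of_comm sq'_h sq'_e comm_eh.symm
  · rw [show coxLabel Fi22.edges Fi22.Gen.h Fi22.Gen.f = 2 by decide +kernel]
    exact sq_of_comm sq'_h sq'_f comm_fh.symm
  · rw [show coxLabel Fi22.edges Fi22.Gen.h Fi22.Gen.g = 2 by decide +kernel]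
    exact sq_of_comm sq'_h sq'_g comm_gh.symm
  · rw [show coxLabel Fi22.edges Fi22.Gen.h Fi22.Gen.h = 1 by decide +kernel]
    exact (pow_one _).trans (val_sq Fi22.Gen.h)
  · rw [show coxLabel Fi22.edges Fi22.Gen.h Fi22.Gen.i = 3 by decide +kernel]
    exact cube_of_braid sq'_h sq'_i braid_hi
  · rw [show coxLabel Fi22.edges Fi22.Gen.i Fi22.Gen.a = 2 by decide +kernel]
    exact sq_of_comm sq'_i sq'_a comm_ai.symm
  · rw [show coxLabel Fi22.edges Fi22.Gen.i Fi22.Gen.b = 2 by decide +kernel]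
    exact sq_of_comm sq'_i sq'_b comm_bi.symm
  · rw [show coxLabel Fi22.edges Fi22.Gen.i Fi22.Gen.c = 2 by decide +kernel]
    exact sq_of_comm sq'_i sq'_c comm_ci.symm
  · rw [show coxLabel Fi22.edges Fi22.Gen.i Fi22.Gen.d = 2 by decide +kernel]
    exact sq_of_comm sq'_i sq'_d comm_di.symm
  · rw [show coxLabel Fi22.edges Fi22.Gen.i Fi22.Gen.e = 2 by decide +kernel]
    exact sq_of_comm sq'_i sq'_e comm_ei.symm
  · rw [show coxLabel Fi22.edges Fi22.Gen.i Fi22.Gen.f = 2 by decide +kernel]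
    exact sq_of_comm sq'_i sq'_f comm_fi.symm
  · rw [show coxLabel Fi22.edges Fi22.Gen.i Fi22.Gen.g = 2 by decide +kernel]
    exact sq_of_comm sq'_i sq'_g comm_gi.symm
  · rw [show coxLabel Fi22.edges Fi22.Gen.i Fi22.Gen.h = 3 by decide +kernel]
    exact cube_of_braid sq'_i sq'_h braid_hi.symm
  · rw [show coxLabel Fi22.edges Fi22.Gen.i Fi22.Gen.i = 1 by decide +kernel]
    exact (pow_one _).trans (val_sq Fi22.Gen.i)

theorem longW : (ud * uc * ub * ud * ue * uf * ud * uh * ui) ^ 10 = 1 := Units.ext <| by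
  show (toM gd * toM gc * toM gb * toM gd * toM ge * toM gf * toM gd * toM gh * toM gi) ^ 10 = 1
  rw [prodIs_spec good_gd good_gc eq_w_0,
    prodIs_spec good_w_0 good_gb eq_w_1,
    prodIs_spec good_w_1 good_gd eq_w_2,
    prodIs_spec good_w_2 good_ge eq_w_3,
    prodIs_spec good_w_3 good_gf eq_w_4,
    prodIs_spec good_w_4 good_gd eq_w_5,
    prodIs_spec good_w_5 good_gh eq_w_6,
    prodIs_spec good_w_6 good_gi eq_w_7]
  rw [show toM w_7 ^ 10 = ((toM w_7 * toM w_7) * (toM w_7 * toM w_7)) * ((toM w_7 * toM w_7) * (toM w_7 * toM w_7)) * (toM w_7 * toM w_7) by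
      simp only [pow_succ, pow_zero, one_mul, mul_assoc],
    prodIs_spec good_w_7 good_w_7 eq_wp2, prodIs_spec good_wp2 good_wp2 eq_wp4,
    prodIs_spec good_wp4 good_wp4 eq_wp8, prodIs_spec good_wp8 good_wp2 w_top, toM_one]

theorem longU : (ua * ub * uc * ud * ue * uf * uh) ^ 9 = 1 := Units.ext <| by
  show (toM ga * toM gb * toM gc * toM gd * toM ge * toM gf * toM gh) ^ 9 = 1
  rw [prodIs_spec good_ga good_gb eq_u_0,
    prodIs_spec good_u_0 good_gc eq_u_1,
    prodIs_spec good_u_1 good_gd eq_u_2,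
    prodIs_spec good_u_2 good_ge eq_u_3,
    prodIs_spec good_u_3 good_gf eq_u_4,
    prodIs_spec good_u_4 good_gh eq_u_5]
  rw [show toM u_5 ^ 9 = ((toM u_5 * toM u_5) * (toM u_5 * toM u_5)) * ((toM u_5 * toM u_5) * (toM u_5 * toM u_5)) * toM u_5 by
      simp only [pow_succ, pow_zero, one_mul, mul_assoc],
    prodIs_spec good_u_5 good_u_5 eq_up2, prodIs_spec good_up2 good_up2 eq_up4,
    prodIs_spec good_up4 good_up4 eq_up8, prodIs_spec good_up8 good_u_5 u_top, toM_one]

theorem longV : (ub * uc * ud * ue * uf * ug * uh) ^ 9 = 1 := Units.ext <| by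
  show (toM gb * toM gc * toM gd * toM ge * toM gf * toM gg * toM gh) ^ 9 = 1
  rw [prodIs_spec good_gb good_gc eq_v_0,
    prodIs_spec good_v_0 good_gd eq_v_1,
    prodIs_spec good_v_1 good_ge eq_v_2,
    prodIs_spec good_v_2 good_gf eq_v_3,
    prodIs_spec good_v_3 good_gg eq_v_4,
    prodIs_spec good_v_4 good_gh eq_v_5]
  rw [show toM v_5 ^ 9 = ((toM v_5 * toM v_5) * (toM v_5 * toM v_5)) * ((toM v_5 * toM v_5) * (toM v_5 * toM v_5)) * toM v_5 by
      simp only [pow_succ, pow_zero, one_mul, mul_assoc],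
    prodIs_spec good_v_5 good_v_5 eq_vp2, prodIs_spec good_vp2 good_vp2 eq_vp4,
    prodIs_spec good_vp4 good_vp4 eq_vp8, prodIs_spec good_vp8 good_v_5 v_top, toM_one]

theorem rels : ∀ r ∈ coxRelators Fi22.edges ∪ {r | r ∈ Fi22.extra},
    FreeGroup.lift val r = 1 := by
  rintro r (⟨x, -, y, -, rfl⟩ | hr)
  · rw [map_pow, map_mul, FreeGroup.lift_apply_of, FreeGroup.lift_apply_of]
    exact val_pair x y
  · simp only [Set.mem_setOf_eq, Fi22.extra, List.mem_cons, List.not_mem_nil, or_false] at hr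
    rcases hr with rfl | rfl | rfl <;>
      simp only [map_pow, map_mul, FreeGroup.lift_apply_of]
    exacts [longW, longU, longV]

/-- the representation -/
noncomputable def rep : Fi22 →* GL (Fin 78) (ZMod 13) := PresentedGroup.toGroup rels

theorem rep_nontrivial : rep (PresentedGroup.of Fi22.Gen.a) ≠ 1 := by
  rw [rep, PresentedGroup.toGroup.of]
  intro h
  have hm : toM ga = toM one := by rw [toM_one]; exact congrArg Units.val h
  have := congrFun (congrFun hm 77) 77
  revert this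
  decide +kernel

end Cfsg.Agent.H57.Fi22Rep
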