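import Mathlib
import Cfsg.Agent.H16.CertArr

/-!
78×78 matrices over `ZMod 13` stored as lists of packed rows (24-bit fields) for kernel evaluation.
A field holds any number below 448 congruent to the entry; the emitter varies the representatives
so that the low bits of different rows differ.
-/

set_option autoImplicit false

namespace Cfsg.Agent.H57.Fi22Rep

open H16 (forceNat forceNat_eq)

/-- field `j` of a packed row -/
def sl (x j : ℕ) : ℕ := x / 16777216 ^ j % 16777216

theorem sl_zero (x : ℕ) : sl x 0 = x % 16777216 := by simp [sl]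

theorem sl_succ (x j : ℕ) : sl x (j + 1) = sl (x / 16777216) j := by
  simp [sl, pow_succ', Nat.div_div_eq_div_mul]

theorem sl_of_zero (j : ℕ) : sl 0 j = 0 := by simp [sl]

theorem sl_add : ∀ (j u v : ℕ), (∀ i, sl u i + sl v i < 16777216) →
    sl (u + v) j = sl u j + sl v j
  | 0, u, v, h => by
    have := h 0
    simp only [sl_zero] at this ⊢
    omega
  | j + 1, u, v, h => by
    have h0 := h 0
    simp only [sl_zero] at h0
    have e : (u + v) / 16777216 = u / 16777216 + v / 16777216 := by omega
    rw [sl_succ, sl_succ, sl_succ, e]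
    exact sl_add j _ _ (fun i => by simpa only [sl_succ] using h (i + 1))

theorem sl_mul : ∀ (j c v : ℕ), (∀ i, c * sl v i < 16777216) → sl (c * v) j = c * sl v j
  | 0, c, v, h => by
    have := h 0
    simp only [sl_zero] at this ⊢
    rw [Nat.mul_mod, ← Nat.mod_eq_of_lt this]
    simp [Nat.mul_mod]
  | j + 1, c, v, h => by
    have h0 := h 0
    simp only [sl_zero] at h0
    have e : c * v / 16777216 = c * (v / 16777216) := by
      conv_lhs => rw [← Nat.div_add_mod v 16777216, Nat.mul_add, Nat.mul_left_comm]
      rw [Nat.mul_add_div (by norm_num), Nat.div_eq_of_lt h0, Nat.add_zero]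
    rw [sl_succ, sl_succ, e]
    exact sl_mul j _ _ (fun i => by simpa only [sl_succ] using h (i + 1))

/-- combination of packed rows, the coefficients being the fields of `x` -/
noncomputable def dot (ps : List ℕ) : ℕ → ℕ :=
  List.rec (motive := fun _ => ℕ → ℕ) (fun _ => 0)
    (fun p _ ih x => forceNat x fun x =>
      Nat.add (Nat.mul (Nat.mod x 16777216) p) (ih (Nat.div x 16777216))) ps

theorem dot_cons (p : ℕ) (ps : List ℕ) (x : ℕ) :
    dot (p :: ps) x = x % 16777216 * p + dot ps (x / 16777216) :=
  forceNat_eq x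
    (fun y => Nat.add (Nat.mul (Nat.mod y 16777216) p) (dot ps (Nat.div y 16777216)))

/-- every field is at most 447 -/
def Small (x : ℕ) : Prop := ∀ j, sl x j ≤ 447

theorem small_zero : Small 0 := fun j => by simp [sl_of_zero]

theorem dot_spec : ∀ (ps : List ℕ) (x : ℕ), ps.length ≤ 80 → Small x → (∀ p ∈ ps, Small p) →
    ∀ j, sl (dot ps x) j ≤ 199809 * ps.length ∧
      sl (dot ps x) j = ∑ k ∈ Finset.range ps.length, sl x k * sl (ps.getD k 0) j
  | [], x, _, _, _, j => by simp [dot, sl_of_zero]
  | p :: ps, x, hl, hx, hp, j => by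
    simp only [List.length_cons] at hl
    have hps : ∀ q ∈ ps, Small q := fun q hq => hp q (List.mem_cons_of_mem _ hq)
    have hx' : Small (x / 16777216) := fun i => by rw [← sl_succ]; exact hx _
    have ih := dot_spec ps (x / 16777216) (by omega) hx' hps
    have hc : x % 16777216 ≤ 447 := by simpa [sl_zero] using hx 0
    have hb : ∀ i, x % 16777216 * sl p i ≤ 199809 := fun i =>
      Nat.mul_le_mul hc (hp p (List.mem_cons_self ..) i)
    have hm : ∀ i, sl (x % 16777216 * p) i = x % 16777216 * sl p i := fun i =>
      sl_mul i _ _ (fun i => lt_of_le_of_lt (hb i) (by norm_num))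
    rw [dot_cons, sl_add j _ _ (fun i => by have := (ih i).1; have := hb i; rw [hm]; omega), hm]
    refine ⟨by have := (ih j).1; have := hb j; simp only [List.length_cons]; omega, ?_⟩
    rw [(ih j).2, List.length_cons, Finset.sum_range_succ']
    simp [sl_succ, sl_zero, add_comm]

/-- conjunction that skips its second argument when the first is false -/
noncomputable def band (a b : Bool) : Bool := Bool.rec false b a

theorem band_iff {a b : Bool} : band a b = true ↔ a = true ∧ b = true := by
  cases a <;> simp [band]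

/-- the first `k` fields are congruent modulo 13 -/
noncomputable def cong (k : ℕ) : ℕ → ℕ → Bool :=
  Nat.rec (motive := fun _ => ℕ → ℕ → Bool) (fun _ _ => true)
    (fun _ ih x y => forceNat x fun x => forceNat y fun y =>
      band (Nat.beq (Nat.mod (Nat.mod x 16777216) 13) (Nat.mod (Nat.mod y 16777216) 13))
        (ih (Nat.div x 16777216) (Nat.div y 16777216))) k

theorem cong_succ (k x y : ℕ) : cong (k + 1) x y =
    band (Nat.beq (x % 16777216 % 13) (y % 16777216 % 13))
      (cong k (x / 16777216) (y / 16777216)) :=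
  (forceNat_eq x (fun x => forceNat y fun y =>
      band (Nat.beq (Nat.mod (Nat.mod x 16777216) 13) (Nat.mod (Nat.mod y 16777216) 13))
        (cong k (Nat.div x 16777216) (Nat.div y 16777216)))).trans
    (forceNat_eq y (fun y =>
      band (Nat.beq (Nat.mod (Nat.mod x 16777216) 13) (Nat.mod (Nat.mod y 16777216) 13))
        (cong k (Nat.div x 16777216) (Nat.div y 16777216))))

theorem cong_spec : ∀ (j k x y : ℕ), cong k x y = true → j < k →
    (sl x j : ZMod 13) = (sl y j : ZMod 13)
  | _, 0, _, _, _, h => absurd h (Nat.not_lt_zero _)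
  | 0, k + 1, x, y, h, _ => by
    rw [cong_succ, band_iff, Nat.beq_eq] at h
    rw [sl_zero, sl_zero, ← ZMod.natCast_mod (x % 16777216) 13, h.1, ZMod.natCast_mod]
  | j + 1, k + 1, x, y, h, hj => by
    rw [cong_succ, band_iff] at h
    rw [sl_succ, sl_succ]
    exact cong_spec j k _ _ h.2 (by omega)

/-- at most `k` fields, each at most 447 -/
noncomputable def smallB (k : ℕ) : ℕ → Bool :=
  Nat.rec (motive := fun _ => ℕ → Bool) (fun x => Nat.beq x 0)
    (fun _ ih x => forceNat x fun x =>
      band (Nat.ble (Nat.mod x 16777216) 447) (ih (Nat.div x 16777216))) k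

theorem smallB_succ (k x : ℕ) :
    smallB (k + 1) x = band (Nat.ble (x % 16777216) 447) (smallB k (x / 16777216)) :=
  forceNat_eq x (fun x => band (Nat.ble (Nat.mod x 16777216) 447) (smallB k (Nat.div x 16777216)))

theorem smallB_spec : ∀ (j k x : ℕ), smallB k x = true → sl x j ≤ 447
  | j, 0, x, h => by
    have : x = 0 := Nat.eq_of_beq_eq_true h
    simp [this, sl_of_zero]
  | 0, k + 1, x, h => by
    rw [smallB_succ, band_iff, Nat.ble_eq] at h
    rw [sl_zero]; exact h.1
  | j + 1, k + 1, x, h => by
    rw [smallB_succ, band_iff] at h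
    rw [sl_succ]
    exact smallB_spec j k _ h.2

/-- a stored matrix: 78 rows of small fields -/
noncomputable def good (A : List ℕ) : Bool :=
  band (Nat.beq A.length 78)
    (List.rec (motive := fun _ => Bool) true (fun p _ ih => band (smallB 78 p) ih) A)

/-- compare two row-by-row images -/
noncomputable def cmp (f g : ℕ → ℕ) (A : List ℕ) : List ℕ → Bool :=
  List.rec (motive := fun _ => List ℕ → Bool) (fun C => C.isEmpty)
    (fun a _ ih C => List.rec (motive := fun _ => Bool) false
      (fun c cs _ => band (cong 78 (f a) (g c)) (ih cs)) C) A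

theorem cmp_spec (f g : ℕ → ℕ) (hf : f 0 = 0) (hg : g 0 = 0) : ∀ (A C : List ℕ),
    cmp f g A C = true → ∀ i j, j < 78 →
      (sl (f (A.getD i 0)) j : ZMod 13) = (sl (g (C.getD i 0)) j : ZMod 13)
  | [], [], _, i, j, _ => by simp [hf, hg]
  | [], _ :: _, h, _, _, _ => by simp [cmp] at h
  | _ :: _, [], h, _, _, _ => by simp [cmp] at h
  | a :: A, c :: C, h, i, j, hj => by
    have h' : band (cong 78 (f a) (g c)) (cmp f g A C) = true := h
    rw [band_iff] at h'
    cases i with
    | zero => exact cong_spec j 78 _ _ h'.1 hj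
    | succ i => exact cmp_spec f g hf hg A C h'.2 i j hj

/-- `A * B = C` -/
noncomputable def prodIs (A B C : List ℕ) : Bool := cmp (dot B) (fun c => c) A C

/-- `A * B = C * D` -/
noncomputable def prodEq (A B C D : List ℕ) : Bool := cmp (dot B) (dot D) A C

/-- the matrix over `ZMod 13` -/
def toM (A : List ℕ) : Matrix (Fin 78) (Fin 78) (ZMod 13) :=
  Matrix.of fun i j => (sl (A.getD i 0) j : ZMod 13)

theorem good_spec {A : List ℕ} (h : good A = true) :
    A.length = 78 ∧ ∀ p ∈ A, Small p := by
  obtain ⟨hl, hr⟩ := band_iff.mp h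
  refine ⟨Nat.eq_of_beq_eq_true hl, ?_⟩
  clear hl h
  induction A with
  | nil => simp
  | cons p A ih =>
    obtain ⟨h1, h2⟩ := band_iff.mp hr
    intro q hq
    rcases List.mem_cons.mp hq with rfl | hq
    · exact fun j => smallB_spec j 78 _ h1
    · exact ih h2 q hq

theorem dot_zero (B : List ℕ) : dot B 0 = 0 := by
  induction B with
  | nil => rfl
  | cons p B ih => rw [dot_cons]; simp [ih]

theorem toM_mul_apply {A B : List ℕ} (hA : good A = true) (hB : good B = true) (i j : Fin 78) :
    (toM A * toM B) i j = (sl (dot B (A.getD i 0)) j : ZMod 13) := by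
  obtain ⟨hA1, hA2⟩ := good_spec hA
  obtain ⟨hB1, hB2⟩ := good_spec hB
  have hi : (i : ℕ) < A.length := by rw [hA1]; exact i.2
  have hx : Small (A.getD i 0) := by
    rw [List.getD_eq_getElem _ _ hi]; exact hA2 _ (List.getElem_mem hi)
  rw [(dot_spec B _ (by rw [hB1]; norm_num) hx hB2 j).2, hB1,
    ← Fin.sum_univ_eq_sum_range (fun k => sl (A.getD i 0) k * sl (B.getD k 0) j) 78]
  simp only [toM, Matrix.of_apply, Matrix.mul_apply]
  push_cast
  rfl

theorem prodIs_spec {A B C : List ℕ} (hA : good A = true) (hB : good B = true)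
    (h : prodIs A B C = true) : toM A * toM B = toM C := by
  ext i j
  rw [toM_mul_apply hA hB]
  exact cmp_spec (dot B) (fun c => c) (dot_zero B) rfl A C h i j j.2

theorem prodEq_spec {A B C D : List ℕ} (hA : good A = true) (hB : good B = true)
    (hC : good C = true) (hD : good D = true) (h : prodEq A B C D = true) :
    toM A * toM B = toM C * toM D := by
  ext i j
  rw [toM_mul_apply hA hB, toM_mul_apply hC hD]
  exact cmp_spec (dot B) (dot D) (dot_zero B) (dot_zero D) A C h i j j.2

end Cfsg.Agent.H57.Fi22Rep
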